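import Mathlib
import Cfsg.Prelude.Def_ChevB2
import Cfsg.Agent.ChevOrth.Iso

/-!
The five-dimensional representation of the cover of type B₂.
-/

set_option autoImplicit false
set_option linter.unusedSimpArgs false
set_option linter.unnecessarySeqFocus false

namespace CfsgLib.ChevOrth.BTwo

open Cfsg Cfsg.Lie CfsgLib.Chevalley CfsgLib.ChevSteinberg CfsgLib.ChevOrth
open scoped Matrix commutatorElement

/-- Coordinates. -/
abbrev J : Type := Unit ⊕ (Fin 2 ⊕ Fin 2)

/-- The anisotropic coordinate. -/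
abbrev o : J := .inl ()

/-- The pairing. -/
def sw : J → J
  | .inl u => .inl u
  | .inr s => .inr s.swap

theorem sw_sw (s : J) : sw (sw s) = s := by rcases s with s | s <;> simp [sw]

theorem sw_ne_iff : ∀ s : J, sw s ≠ s ↔ s ≠ o := by decide

/-- Diagonal terms. -/
def diagT : List (J × J × ℤ × ℕ) :=
  [(o, o, 1, 0), (.inr (.inl 0), .inr (.inl 0), 1, 0), (.inr (.inl 1), .inr (.inl 1), 1, 0),
   (.inr (.inr 0), .inr (.inr 0), 1, 0), (.inr (.inr 1), .inr (.inr 1), 1, 0)]

/-- Root vectors: row `b`, column `c` and sign. -/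
def rootsB : List (J × J × ℤ) :=
  [(.inr (.inr 0), .inr (.inl 1), -1), (o, .inr (.inl 0), -1), (o, .inr (.inl 1), -1),
   (.inr (.inr 0), .inr (.inr 1), -1), (.inr (.inl 0), .inr (.inl 1), 1), (o, .inr (.inr 1), 1),
   (o, .inr (.inr 0), 1), (.inr (.inl 0), .inr (.inr 1), 1)]

/-- Root elements. -/
def tab : RTab J := fun r => match rootsB[r]? with
  | none => diagT
  | some (b, c, s) =>
    if b = o then diagT ++ [(o, c, s, 1), (sw c, o, -2 * s, 1), (sw c, c, -1, 2)]
    else diagT ++ [(b, c, s, 1), (sw c, sw b, -s, 1)]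

/-- The identity in term form. -/
def oneT : List (Trm J) := diagT.map fun q => (q.1, q.2.1, q.2.2.1, 0, 0)

theorem check : checkB chevB2 tab oneT = true := by decide +kernel

variable (F : Type*) [Field F]

theorem diag_sum (f : ℕ → F) (hf : f 0 = 1) :
    (diagT.map fun q => Matrix.single q.1 q.2.1 ((q.2.2.1 : F) * f q.2.2.2)).sum = 1 := by
  ext i j
  simp only [diagT, List.map_cons, List.map_nil, List.sum_cons, List.sum_nil, hf, Int.cast_one,
    mul_one, add_zero, Matrix.add_apply, Matrix.single_apply, Matrix.one_apply]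
  rcases i with i | i | i <;> rcases j with j | j | j <;> fin_cases i <;> fin_cases j <;> simp

theorem checked : Checked chevB2 tab F := by
  refine checked_of_checkB check (fun t u => ?_) fun r hr t => ?_
  · rw [tev, oneT, List.map_map]
    exact diag_sum F (fun _ => 1) rfl ▸ congrArg List.sum (List.map_congr_left fun q _ => by simp)
  · have : tab r = diagT := by
      unfold tab
      rw [List.getElem?_eq_none (by simpa [rootsB] using (show 8 ≤ r from not_lt.1 hr))]
    rw [rmat, this]
    exact diag_sum F (fun n => t ^ n) (pow_zero t)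

variable {F}

/-- The elementary root matrices. -/
noncomputable def gMat (b c : J) (t : F) : Matrix J J F :=
  if b = o then
    1 + Matrix.single o c t + Matrix.single (sw c) o (-2 * t) + Matrix.single (sw c) c (-t ^ 2)
  else 1 + Matrix.single b c t + Matrix.single (sw c) (sw b) (-t)

theorem gMat_short_mulVec (c : J) (t : F) (v : J → F) :
    gMat o c t *ᵥ v =
      v + Pi.single o (t * v c) +
        (Pi.single (sw c) (-2 * t * v o - t ^ 2 * v c : F) : J → F) := by
  funext i
  simp [gMat, Matrix.add_mulVec, Matrix.single_mulVec, Function.update, Pi.single, sub_eq_add_neg]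
  split_ifs <;> ring

theorem gMat_long_mulVec {b : J} (hb : b ≠ o) (c : J) (t : F) (v : J → F) :
    gMat b c t *ᵥ v = v + Pi.single b (t * v c) + Pi.single (sw c) (-(t * v (sw b))) := by
  funext i
  simp [gMat, hb, Matrix.add_mulVec, Matrix.single_mulVec, Function.update, Pi.single]

theorem roots_adm : ∀ r : Fin 8, ∀ q ∈ rootsB[(r : ℕ)]?,
    q.2.1 ≠ o ∧ q.1 ≠ q.2.1 ∧ q.1 ≠ sw q.2.1 ∧ q.2.2 * q.2.2 = 1 := by
  decide +kernel

theorem exists_root {r : ℕ} (hr : r < chevB2.nroots) : ∃ b c s, rootsB[r]? = some (b, c, s) ∧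
    c ≠ o ∧ b ≠ c ∧ b ≠ sw c ∧ (s : F) * s = 1 := by
  obtain ⟨⟨b, c, s⟩, hq⟩ : ∃ q, rootsB[r]? = some q :=
    ⟨rootsB[r]'(by simpa [rootsB] using (show r < 8 from hr)), List.getElem?_eq_getElem _⟩
  obtain ⟨h1, h2, h3, h4⟩ := roots_adm ⟨r, hr⟩ _ hq
  exact ⟨b, c, s, hq, h1, h2, h3, by rw [← Int.cast_mul, h4, Int.cast_one]⟩

theorem rmat_root {r : ℕ} {b c : J} {s : ℤ} (h : rootsB[r]? = some (b, c, s))
    (hs : (s : F) * s = 1) (t : F) : rmat tab F r t = gMat b c ((s : F) * t) := by
  have : tab r = if b = o then diagT ++ [(o, c, s, 1), (sw c, o, -2 * s, 1), (sw c, c, -1, 2)]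
      else diagT ++ [(b, c, s, 1), (sw c, sw b, -s, 1)] := by unfold tab; rw [h]
  rw [rmat, this, gMat]
  split_ifs <;>
    rw [List.map_append, List.sum_append, diag_sum F (fun n => t ^ n) (pow_zero t)] <;>
    simp [add_assoc, mul_assoc, mul_pow, pow_two (s : F), hs]

theorem gMat_symm {b : J} (hb : b ≠ o) {c : J} (hc : c ≠ o) (t : F) :
    gMat (sw c) (sw b) t = gMat b c (-t) := by
  have : sw c ≠ o := fun e => hc (by rw [← sw_sw c, e]; rfl)
  rw [gMat, gMat, if_neg this, if_neg hb, sw_sw, sw_sw, neg_neg]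
  abel

/-- The group of the root elements. -/
noncomputable def grp (F : Type*) [Field F] : Subgroup (GL J F) := (checked F).coverHom.range

/-- Some root gives the position `(b, c)`. -/
def covB (b c : J) : Bool :=
  rootsB.any fun q => decide (q.2.2 * q.2.2 = 1) &&
    (decide ((q.1, q.2.1) = (b, c)) || (decide (b ≠ o) && decide ((q.1, q.2.1) = (sw c, sw b))))

theorem covB_all : ∀ b c : J, c ≠ o → b ≠ c → b ≠ sw c → covB b c = true := by
  decide +kernel

theorem roots_cover (b c : J) (hc : c ≠ o) (h1 : b ≠ c) (h2 : b ≠ sw c) : ∃ r : ℕ,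
    ∃ q ∈ rootsB[r]?, q.2.2 * q.2.2 = 1 ∧
      ((q.1, q.2.1) = (b, c) ∨ (b ≠ o ∧ (q.1, q.2.1) = (sw c, sw b))) := by
  have h := covB_all b c hc h1 h2
  simp only [covB, List.any_eq_true, Bool.and_eq_true, Bool.or_eq_true, decide_eq_true_eq] at h
  obtain ⟨q, hq, hh⟩ := h
  obtain ⟨r, hr, hre⟩ := List.getElem_of_mem hq
  exact ⟨r, q, by rw [Option.mem_def, List.getElem?_eq_getElem hr, hre], hh⟩

theorem gMat_mem {b c : J} (hc : c ≠ o) (h1 : b ≠ c) (h2 : b ≠ sw c) (t : F) :
    ∃ g ∈ grp F, (g : Matrix J J F) = gMat b c t := by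
  obtain ⟨r, ⟨b', c', s⟩, hq, hs, he⟩ := roots_cover b c hc h1 h2
  have hs' : (s : F) * (s : F) = 1 := by rw [← Int.cast_mul, hs, Int.cast_one]
  rcases he with he | ⟨hb, he⟩ <;> simp only [Prod.mk.injEq] at he <;> obtain ⟨rfl, rfl⟩ := he
  · exact ⟨_, ⟨_, (checked F).coverHom_gen r ((s : F) * t)⟩, by
      rw [Checked.gl_val, rmat_root hq hs', ← mul_assoc, hs', one_mul]⟩
  · exact ⟨_, ⟨_, (checked F).coverHom_gen r ((s : F) * -t)⟩, by
      rw [Checked.gl_val, rmat_root hq hs', ← mul_assoc, hs', one_mul, gMat_symm hb hc, neg_neg]⟩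

theorem Q_add_single {a : J} (ha : a ≠ o) (v : J → F) (x : F) :
    quadFormOdd 2 F (v + Pi.single a x) = quadFormOdd 2 F v + x * v (sw a) := by
  rcases a with u | i | i
  · exact absurd rfl ha
  all_goals
    fin_cases i <;> simp [quadFormOdd, sw, Fin.sum_univ_two, Pi.single_apply] <;> ring

theorem Q_add_o (v : J → F) (x : F) :
    quadFormOdd 2 F (v + Pi.single o x) = quadFormOdd 2 F v + 2 * x * v o + x ^ 2 := by
  simp [quadFormOdd, Fin.sum_univ_two, Pi.single_apply]
  ring

theorem sw_ne_o {c : J} (hc : c ≠ o) : sw c ≠ o := fun e => hc (by rw [← sw_sw c, e]; rfl)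

theorem Q_single {a : J} (ha : a ≠ o) (x : F) : quadFormOdd 2 F (Pi.single a x) = 0 := by
  rw [← zero_add (Pi.single a x : J → F), Q_add_single ha]
  simp [quadFormOdd]

theorem Q_single_o (x : F) : quadFormOdd 2 F (Pi.single o x) = x ^ 2 := by
  rw [← zero_add (Pi.single o x : J → F), Q_add_o]
  simp [quadFormOdd]

theorem gl_isometry (r : ℕ) (hr : r < chevB2.nroots) (t : F) :
    (checked F).gl r t ∈ isometryGroup F (quadFormOdd 2 F) := by
  rw [mem_isometryGroup_iff']
  intro v
  obtain ⟨b, c, s, hq, hc, h1, h2, hs⟩ := exists_root (F := F) hr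
  rw [Checked.gl_val, rmat_root hq hs]
  by_cases hb : b = o
  · subst hb
    rw [gMat_short_mulVec, Q_add_single (sw_ne_o hc), Q_add_o, sw_sw]
    simp [Pi.single_apply, hc]
    ring
  · rw [gMat_long_mulVec hb, Q_add_single (sw_ne_o hc), Q_add_single hb, sw_sw]
    simp [Pi.single_apply, Ne.symm h1]
    ring

/-- The frame. -/
noncomputable def frame (F : Type*) [Field F] : Frame J F where
  Q := quadFormOdd 2 F
  sw := sw
  sw_sw := sw_sw
  H := grp F
  H_le := by
    rw [grp, Checked.coverHom_range, Subgroup.closure_le]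
    rintro _ ⟨r, hr, t, rfl⟩
    exact gl_isometry r hr t
  pol v s hs := by
    have hs' := sw_ne_o ((sw_ne_iff s).1 hs)
    rw [Q_add_single hs', Q_single hs', sw_sw]
    ring
  pair c hc x z := by
    have hc' := (sw_ne_iff c).1 hc
    rw [Q_add_single (sw_ne_o hc'), Q_single hc', sw_sw, Pi.single_eq_same]
    ring
  hyp v hv hv0 := by
    by_contra h
    push Not at h
    have he : v = Pi.single o (v o) := by
      funext a
      by_cases ha : a = o
      · subst ha; simp
      · rw [Pi.single_eq_of_ne ha]; exact h a ((sw_ne_iff a).2 ha)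
    rw [he, Q_single_o] at hv
    rw [eq_zero_of_pow_eq_zero hv, Pi.single_zero] at he
    exact hv0 he
  elt b c hc h1 h2 t := by
    have hc' := (sw_ne_iff c).1 hc
    obtain ⟨g, hg, hge⟩ := gMat_mem hc' h1 h2 t
    refine ⟨g, hg, ?_⟩
    by_cases hb : b = o
    · subst hb
      refine ⟨fun v => ⟨?_, fun i hi hi' => ?_⟩, fun s hs hs' => ?_⟩
      · rw [hge, gMat_short_mulVec]; simp [(sw_ne_o hc').symm]
      · rw [hge, gMat_short_mulVec]; simp [hi, hi']
      · rw [hge, gMat_short_mulVec]
        simp [Ne.symm hs, (show o ≠ s from fun e => hs' (by rw [← e]; rfl))]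
    · refine ⟨fun v => ⟨?_, fun i hi hi' => ?_⟩, fun s hs hs' => ?_⟩
      · rw [hge, gMat_long_mulVec hb]; simp [h2]
      · rw [hge, gMat_long_mulVec hb]; simp [hi, hi']
      · rw [hge, gMat_long_mulVec hb]; simp [Ne.symm hs, Ne.symm hs']

/-- Diagonal matrices. -/
noncomputable def dGL (d : J → Fˣ) : GL J F :=
  ⟨Matrix.diagonal fun i => (d i : F), Matrix.diagonal fun i => ((d i)⁻¹ : Fˣ),
    by simp, by simp⟩

theorem dGL_mulVec (d : J → Fˣ) (v : J → F) :
    (dGL d : Matrix J J F) *ᵥ v = fun i => (d i : F) * v i := by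
  funext i
  exact Matrix.mulVec_diagonal _ _ _

theorem dGL_mul (d e : J → Fˣ) : dGL d * dGL e = dGL (d * e) :=
  Units.ext (by simp [dGL, Matrix.diagonal_mul_diagonal])

theorem dGL_inv (d : J → Fˣ) : (dGL d)⁻¹ = dGL d⁻¹ := by
  refine inv_eq_of_mul_eq_one_right ?_
  rw [dGL_mul, mul_inv_cancel]
  exact Units.ext (by simp [dGL])

theorem gl_ext {g h : GL J F} (H : ∀ v, (g : Matrix J J F) *ᵥ v = (h : Matrix J J F) *ᵥ v) :
    g = h := Units.ext (Matrix.ext_of_mulVec_single fun i => H _)

theorem conj_gl {d : J → Fˣ} (hd : ∀ i, d (sw i) = (d i)⁻¹) {r : ℕ} {b c : J} {s : ℤ}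
    (hq : rootsB[r]? = some (b, c, s)) (hs : (s : F) * s = 1) (t : F) :
    dGL d * (checked F).gl r t * (dGL d)⁻¹ =
      (checked F).gl r ((d b : F) * ((d c)⁻¹ : Fˣ) * t) := by
  rw [mul_inv_eq_iff_eq_mul]
  refine gl_ext fun v => ?_
  rw [glMul_mulVec, glMul_mulVec, Checked.gl_val, Checked.gl_val, rmat_root hq hs,
    rmat_root hq hs, dGL_mulVec, dGL_mulVec]
  by_cases hb : b = o
  · subst hb
    rw [gMat_short_mulVec, gMat_short_mulVec]
    have h0 : (d o : F) * d o = 1 := by
      have h := hd o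
      rw [show sw o = o from rfl] at h
      rw [← Units.val_mul]
      nth_rewrite 1 [h]
      simp
    funext i
    simp only [Pi.add_apply, Pi.single_apply, mul_add]
    congr 1
    · congr 1
      split_ifs with h
      · subst h; simp; field_simp
      · simp
    · split_ifs with h
      · subst h
        rw [hd c]
        simp only [Units.val_inv_eq_inv_val]
        have hc0 : (d c : F) ≠ 0 := (d c).ne_zero
        field_simp
        linear_combination (2 * (s : F) * t * v o) * h0 +
          ((s : F) ^ 2 * t ^ 2 * v c) * h0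
      · simp
  · rw [gMat_long_mulVec hb, gMat_long_mulVec hb]
    funext i
    simp only [Pi.add_apply, Pi.single_apply, mul_add]
    congr 1
    · congr 1
      split_ifs with h
      · subst h; simp; field_simp
      · simp
    · split_ifs with h
      · subst h; simp [hd]; field_simp
      · simp

/-- Representatives: diagonal isometries. -/
def reps (F : Type*) [Field F] : Set (GL J F) :=
  {g | ∃ d : J → Fˣ, (∀ i, d (sw i) = (d i)⁻¹) ∧ g = dGL d}

theorem reps_le : reps F ⊆ isometryGroup F (quadFormOdd 2 F) := by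
  rintro _ ⟨d, hd, rfl⟩
  rw [SetLike.mem_coe, mem_isometryGroup_iff']
  intro v
  have h0 : (d o : F) * d o = 1 := by
    have h := hd o
    rw [show sw o = o from rfl] at h
    rw [← Units.val_mul]
    nth_rewrite 1 [h]
    simp
  have h1 : ∀ i : Fin 2, (d (.inr (.inr i)) : F) = ((d (.inr (.inl i)) : F))⁻¹ := fun i => by
    rw [← Units.val_inv_eq_inv_val, ← hd]; rfl
  simp only [quadFormOdd, dGL_mulVec, Fin.sum_univ_two, h1, mul_pow, pow_two (d o : F), h0]
  field_simp

theorem reps_norm (g : GL J F) (hg : g ∈ reps F) (r : ℕ) (hr : r < chevB2.nroots) (t : F) :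
    g * (checked F).gl r t * g⁻¹ ∈ grp F ∧ g⁻¹ * (checked F).gl r t * g ∈ grp F := by
  obtain ⟨d, hd, rfl⟩ := hg
  obtain ⟨b, c, s, hq, -, -, -, hs⟩ := exists_root (F := F) hr
  refine ⟨?_, ?_⟩
  · rw [conj_gl hd hq hs]; exact ⟨_, (checked F).coverHom_gen _ _⟩
  · have := conj_gl (d := d⁻¹) (fun i => by simp [hd i]) hq hs t
    rw [← dGL_inv, inv_inv] at this
    rw [this]; exact ⟨_, (checked F).coverHom_gen _ _⟩

theorem reps_comm (g : GL J F) (hg : g ∈ reps F) (h : GL J F) (hh : h ∈ reps F) :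
    ⁅g, h⁆ ∈ grp F := by
  obtain ⟨d, -, rfl⟩ := hg
  obtain ⟨e, -, rfl⟩ := hh
  rw [commutatorElement_eq_one_iff_mul_comm.2 (by rw [dGL_mul, dGL_mul, mul_comm])]
  exact one_mem _

theorem decompose (g : GL J F) (hg : g ∈ isometryGroup F (quadFormOdd 2 F)) :
    ∃ x ∈ reps F, g * x⁻¹ ∈ grp F := by
  set E : J := .inr (.inl 1) with hE
  set E' : J := .inr (.inr 1) with hE'
  have hEo : E ≠ o := by simp [hE]
  have hE'o : E' ≠ o := by simp [hE']
  have hEE : sw E = E' := rfl
  have hEE' : sw E' = E := rfl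
  obtain ⟨h1, hh1, f1⟩ := (frame F).step (S := (∅ : Finset J)) (c := .inr (.inl 0)) (d := E)
    (fun s hs => by simp at hs) (by simp [frame, sw]) (by simp) (by simp [frame, sw, hE])
    (by simp) (by simp [hE]) (by simp [frame, sw, hE]) hg (fun s hs => by simp at hs)
  set S : Finset J := {.inr (.inl 0), .inr (.inr 0)} with hS
  have hcl : (frame F).Closed S := by
    intro s hs
    simp only [hS, Finset.mem_insert, Finset.mem_singleton] at hs
    rcases hs with rfl | rfl <;> simp [frame, sw, hS]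
  have hES : E ∉ S := by simp [hE, hS]
  have hE'S : E' ∉ S := by simp [hE', hS]
  set k1 := h1 * g with hk1
  have hk1O : k1 ∈ isometryGroup F (quadFormOdd 2 F) := mul_mem ((frame F).H_le hh1) hg
  have fk1 : Frame.Fixes k1 S := f1.mono (by simp [hS, frame, sw])
  obtain ⟨h2, hh2, f2, hne⟩ : ∃ h ∈ grp F, Frame.Fixes h S ∧
      (((h * k1 : GL J F) : Matrix J J F) *ᵥ Pi.single E 1) E ≠ 0 := by
    set v := (k1 : Matrix J J F) *ᵥ Pi.single E 1 with hv
    by_cases h0 : v E = 0
    · have hsupp := (frame F).suppOut_image hcl hk1O fk1 hES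
      have hQv : quadFormOdd 2 F v = 0 := by
        rw [hv, mem_isometryGroup_iff'.1 hk1O, Q_single hEo]
      have hv00 : v (.inr (.inl 0)) = 0 := hsupp _ (by simp [hS])
      have hvo : v o = 0 := by
        simp [quadFormOdd, Fin.sum_univ_two, hv00, show v (.inr (.inl 1)) = 0 from h0] at hQv
        simpa using hQv
      have hvne : v E' ≠ 0 := by
        intro e
        have hz : v = 0 := by
          funext i
          rcases i with i | i | i <;> fin_cases i
          · exact hvo
          · exact hsupp _ (by simp [hS])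
          · exact h0
          · exact hsupp _ (by simp [hS])
          · exact e
        have := congrArg (fun w => ((k1⁻¹ : GL J F) : Matrix J J F) *ᵥ w) hz
        simp only [Matrix.mulVec_zero, hv] at this
        rw [← glMul_mulVec, inv_mul_cancel, glOne_mulVec] at this
        exact one_ne_zero (α := F) (by simpa using congrFun this E)
      obtain ⟨h, hh, he⟩ := gMat_mem (F := F) (b := o) hE'o (Ne.symm hE'o)
        (Ne.symm (sw_ne_o hE'o)) 1
      refine ⟨h, hh, fun s hs => ?_, ?_⟩
      · rw [he, gMat_short_mulVec]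
        simp [(show E' ≠ s from fun e => hE'S (e ▸ hs)),
          (show o ≠ s from fun e => by subst e; simp [hS] at hs)]
      · rw [glMul_mulVec, ← hv, he, gMat_short_mulVec, hEE']
        simp [hvo, h0, hEo, hvne]
    · exact ⟨1, one_mem _, fun s _ => glOne_mulVec _, by rwa [one_mul, ← hv]⟩
  set k2 := h2 * k1 with hk2
  have hk2O : k2 ∈ isometryGroup F (quadFormOdd 2 F) := mul_mem ((frame F).H_le hh2) hk1O
  have fk2 : Frame.Fixes k2 S := f2.mul fk1
  obtain ⟨h3, hh3, f3, he3⟩ := (frame F).clear hcl (c := E) ((sw_ne_iff E).2 hEo) hES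
    (v := (k2 : Matrix J J F) *ᵥ Pi.single E 1)
    (show quadFormOdd 2 F _ = 0 by rw [mem_isometryGroup_iff'.1 hk2O, Q_single hEo]) hne
    ((frame F).suppOut_image hcl hk2O fk2 hES)
  set x := ((k2 : Matrix J J F) *ᵥ Pi.single E 1) E with hx
  rw [← glMul_mulVec] at he3
  set k3 := h3 * k2 with hk3
  have hk3O : k3 ∈ isometryGroup F (quadFormOdd 2 F) := mul_mem ((frame F).H_le hh3) hk2O
  have fk3 : Frame.Fixes k3 S := (f3.mono (Finset.subset_insert _ _)).mul fk2
  set w := (k3 : Matrix J J F) *ᵥ Pi.single E' 1 with hw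
  have hQw : quadFormOdd 2 F w = 0 := by
    rw [hw, mem_isometryGroup_iff'.1 hk3O, Q_single hE'o]
  have hxw : x * w E' = 1 := by
    have := Q_add_single hEo w x
    rw [hQw, zero_add, hEE] at this
    rw [← this, ← he3, hw, ← Matrix.mulVec_add, mem_isometryGroup_iff'.1 hk3O,
      Q_add_single hEo, Q_single hE'o, hEE]
    simp
  obtain ⟨h4, hh4, f4, he4⟩ := (frame F).clear hcl (c := E') ((sw_ne_iff E').2 hE'o) hE'S (v := w) hQw
    (fun e => by rw [e, mul_zero] at hxw; exact zero_ne_one hxw)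
    ((frame F).suppOut_image hcl hk3O fk3 hE'S)
  rw [hw, ← glMul_mulVec] at he4
  set k4 := h4 * k3 with hk4
  have hk4O : k4 ∈ isometryGroup F (quadFormOdd 2 F) := mul_mem ((frame F).H_le hh4) hk3O
  have fk4 : Frame.Fixes k4 S := (f4.mono (Finset.subset_insert _ _)).mul fk3
  have heE : (k4 : Matrix J J F) *ᵥ Pi.single E 1 = Pi.single E x := by
    rw [hk4, glMul_mulVec, he3]
    have := f4 E (show E ∈ insert ((frame F).sw E') S from Finset.mem_insert_self _ _)
    rw [show (Pi.single E x : J → F) = x • Pi.single E 1 by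
      rw [← Pi.single_smul', smul_eq_mul, mul_one], Matrix.mulVec_smul, this]
  set u := (k4 : Matrix J J F) *ᵥ Pi.single o 1 with hu
  have hQu : quadFormOdd 2 F u = 1 := by
    rw [hu, mem_isometryGroup_iff'.1 hk4O, Q_single_o, one_pow]
  have husupp := (frame F).suppOut_image (c := o) hcl hk4O fk4 (by simp [hS])
  have hu1 : u E' = 0 := by
    have := Q_add_single hEo u x
    rw [hQu, hEE] at this
    rw [hu, ← heE, ← Matrix.mulVec_add, mem_isometryGroup_iff'.1 hk4O, Q_add_single hEo,
      Q_single_o, hEE, ← hu] at this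
    simp [hE'o] at this
    exact this.resolve_left fun e => by rw [e, zero_mul] at hxw; exact zero_ne_one hxw
  have hu2 : u E = 0 := by
    have := Q_add_single hE'o u (w E')
    rw [hQu, hEE'] at this
    rw [hu, ← he4, ← Matrix.mulVec_add, mem_isometryGroup_iff'.1 hk4O, Q_add_single hE'o,
      Q_single_o, hEE', ← hu] at this
    simp [hEo] at this
    exact this.resolve_left fun e => by rw [e, mul_zero] at hxw; exact zero_ne_one hxw
  have huo : u o * u o = 1 := by
    simp only [quadFormOdd, Fin.sum_univ_two, show u (.inr (.inl 1)) = 0 from hu2,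
      show u (.inr (.inl 0)) = 0 from husupp _ (by simp [hS]), zero_mul, add_zero, pow_two] at hQu
    exact hQu
  set d : J → Fˣ := fun i => if i = o then ⟨u o, u o, huo, huo⟩
    else if i = E then ⟨x, w E', hxw, by rw [mul_comm]; exact hxw⟩
    else if i = E' then ⟨w E', x, by rw [mul_comm]; exact hxw, hxw⟩ else 1 with hd
  refine ⟨dGL d, ⟨d, fun i => ?_, rfl⟩, ?_⟩
  · rcases i with i | i | i <;> fin_cases i <;> simp [hd, sw, hE, hE'] <;> rfl
  have hk : k4 = dGL d := by
    refine Units.ext (Matrix.ext_of_mulVec_single fun i => ?_)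
    rw [dGL_mulVec]
    rcases i with i | i | i <;> fin_cases i
    · change u = _
      funext j
      rcases j with j | j | j <;> fin_cases j
      · simp [hd]
      · simp
        exact husupp (.inr (.inl 0)) (by simp [hS])
      · simpa using hu2
      · simp
        exact husupp (.inr (.inr 0)) (by simp [hS])
      · simpa using hu1
    · change (k4 : Matrix J J F) *ᵥ Pi.single (.inr (.inl 0)) 1 = _
      rw [fk4 _ (by simp [hS])]
      funext j
      rcases j with j | j | j <;> fin_cases j <;> simp [hd, hE, hE', Pi.single_apply]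
    · change (k4 : Matrix J J F) *ᵥ Pi.single E 1 = _
      rw [heE]
      funext j
      rcases j with j | j | j <;> fin_cases j <;> simp [hd, hE, hE', Pi.single_apply]
    · change (k4 : Matrix J J F) *ᵥ Pi.single (.inr (.inr 0)) 1 = _
      rw [fk4 _ (by simp [hS])]
      funext j
      rcases j with j | j | j <;> fin_cases j <;> simp [hd, hE, hE', Pi.single_apply]
    · change (k4 : Matrix J J F) *ᵥ Pi.single E' 1 = _
      rw [he4, ← hw]
      funext j
      rcases j with j | j | j <;> fin_cases j <;> simp [hd, hE, hE', Pi.single_apply]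
  rw [← hk, show g * k4⁻¹ = h1⁻¹ * h2⁻¹ * h3⁻¹ * h4⁻¹ by rw [hk4, hk3, hk2, hk1]; group]
  exact mul_mem (mul_mem (mul_mem (inv_mem hh1) (inv_mem hh2)) (inv_mem hh3)) (inv_mem hh4)

theorem perf {a : F} (ha0 : a ≠ 0) (ha1 : a ≠ 1) (r : ℕ) (hr : r < chevB2.nroots) (t : F) :
    (⟨(checked F).gl r t, gl_isometry r hr t⟩ : ↥(isometryGroup F (quadFormOdd 2 F))) ∈
      commutator ↥(isometryGroup F (quadFormOdd 2 F)) := by
  obtain ⟨b, c, s, hq, hc, h1, h2, hs⟩ := exists_root (F := F) hr
  set p : J := if b = o then sw c else b with hp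
  have hpo : p ≠ o := by
    rw [hp]; split_ifs with hb
    · exact sw_ne_o hc
    · exact hb
  set d : J → Fˣ := Function.update (Function.update 1 p (Units.mk0 a ha0)) (sw p)
    (Units.mk0 a ha0)⁻¹ with hd
  have hpp : sw p ≠ p := (sw_ne_iff p).2 hpo
  have hdd : ∀ i, d (sw i) = (d i)⁻¹ := by
    intro i
    by_cases hi : i = p
    · subst hi; simp [hd, Ne.symm hpp]
    by_cases hi' : i = sw p
    · subst hi'; simp [hd, sw_sw, Ne.symm hpp]
    have e1 : sw i ≠ p := fun e => hi' (by rw [← e, sw_sw])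
    have e2 : sw i ≠ sw p := fun e => hi (by rw [← sw_sw i, e, sw_sw])
    simp [hd, hi, hi', e1, e2]
  have hlam : (d b : F) * ((d c)⁻¹ : Fˣ) = a := by
    by_cases hb : b = o
    · rw [hb] at h1 h2 ⊢
      have e : p = sw c := by rw [hp, if_pos hb]
      simp [hd, e, sw_sw, Ne.symm hc, Ne.symm (sw_ne_o hc)]
    · have e : p = b := by rw [hp, if_neg hb]
      have e3 : c ≠ sw b := fun e' => h2 (by rw [e', sw_sw])
      simp [hd, e, Ne.symm h1, e3, Ne.symm ((sw_ne_iff b).2 hb)]
  set x : ↥(isometryGroup F (quadFormOdd 2 F)) := ⟨dGL d, reps_le ⟨d, hdd, rfl⟩⟩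
  set y : ↥(isometryGroup F (quadFormOdd 2 F)) :=
    ⟨(checked F).gl r (t / (a - 1)), gl_isometry r hr _⟩
  have e : (⟨(checked F).gl r t, gl_isometry r hr t⟩ :
      ↥(isometryGroup F (quadFormOdd 2 F))) = ⁅x, y⁆ := by
    apply Subtype.ext
    rw [commutatorElement_def, Subgroup.coe_mul, Subgroup.coe_mul, Subgroup.coe_mul,
      Subgroup.coe_inv, Subgroup.coe_inv]
    show (checked F).gl r t = dGL d * (checked F).gl r (t / (a - 1)) * (dGL d)⁻¹ *
      ((checked F).gl r (t / (a - 1)))⁻¹
    rw [conj_gl hdd hq hs, hlam]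
    apply Units.ext
    rw [Units.val_mul]
    show rmat tab F r t = rmat tab F r _ * rmat tab F r (-(t / (a - 1)))
    rw [(checked F).add r hr]
    congr 1
    have : a - 1 ≠ 0 := sub_ne_zero.2 ha1
    field_simp
    ring
  rw [e, commutator_eq_closure]
  exact Subgroup.subset_closure ⟨_, _, rfl⟩

theorem equiv (S : Sys chevB2) (W : Witness S) (hs : IsSimpleGroup ↥(chevB2.group F)) {a : F}
    (ha0 : a ≠ 0) (ha1 : a ≠ 1) :
    Nonempty (↥(chevB2.group F) ≃* POmega F (quadFormOdd 2 F)) := by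
  refine equiv_POmega S W hs (checked F) _ gl_isometry (reps F) reps_le reps_norm decompose
    reps_comm (perf ha0 ha1) (r := 4) (s := 5) (by decide) (by decide) ?_
  intro e
  have h1 : ((1 : ℤ) : F) * ((1 : ℤ) : F) = 1 := by simp
  have := congrFun (congrArg (fun g : GL J F => (g : Matrix J J F) *ᵥ Pi.single (.inr (.inr 0)) 1) e)
    o
  simp only [glMul_mulVec, Checked.gl_val,
    rmat_root (r := 4) (b := .inr (.inl 0)) (c := .inr (.inl 1)) (s := 1) rfl h1,
    rmat_root (r := 5) (b := o) (c := .inr (.inr 1)) (s := 1) rfl h1, gMat_short_mulVec,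
    gMat_long_mulVec (b := .inr (.inl 0)) (by simp)] at this
  simp [sw, Pi.single_apply] at this

end CfsgLib.ChevOrth.BTwo
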